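import Cfsg.Agent.Lib.Helper18.StEmbE7.Tab

/-!
# The embedding of the roots of type E₇ into those of type E₈: check, part 3
-/

set_option autoImplicit false

namespace Cfsg.Agent.Lib.Helper18.StAbs

open Cfsg Cfsg.Lie Cfsg.Lie.ChevalleyDatum

set_option maxRecDepth 100000 in
theorem embchk_E7_2 :
    embChunkB chevE7 chevE8 embE7 (List.range' 64 32) = true := by decide +kernel

end Cfsg.Agent.Lib.Helper18.StAbs
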