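import Cfsg.Agent.Lib.Helper18.StEmbE7.Chk
import Cfsg.Agent.Lib.Helper18.StEmbE7.R0
import Cfsg.Agent.Lib.Helper18.StEmbE7.R1
import Cfsg.Agent.Lib.Helper18.StEmbE7.R2
import Cfsg.Agent.Lib.Helper18.StEmbE7.R3
import Cfsg.Agent.Lib.Helper18.StCovCent
import Cfsg.Agent.Lib.Helper18.StCert.E7x
import Cfsg.Agent.Lib.Helper18.StCert.E8x

/-!
# Type E₇: the kernel of the homomorphism from the group presented by (R1), (R2)

Over a finite field the kernel of the homomorphism from the group presented by Steinberg's relators
(R1), (R2) of type E₇ onto the Chevalley group is the centre, isomorphic to the group of square roots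
of unity of the field.
-/

set_option autoImplicit false

namespace Cfsg.Agent.Lib.Helper18.StAbs

open Cfsg Cfsg.Lie Cfsg.Lie.ChevalleyDatum

theorem embrow_E7 (r : ℕ) (hr : r < chevE7.nroots) :
    embRowB chevE7 chevE8 embE7 r = true := by
  have hn : chevE7.nroots = 126 := by decide
  rw [hn] at hr
  have h : r ∈ List.range' 0 32 ∨
      r ∈ List.range' 32 32 ∨
      r ∈ List.range' 64 32 ∨
      r ∈ List.range' 96 30 := by
    simp only [List.mem_range'_1]
    omega
  rcases h with h | h | h | h
  · exact List.all_eq_true.mp embchk_E7_0 r h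
  · exact List.all_eq_true.mp embchk_E7_1 r h
  · exact List.all_eq_true.mp embchk_E7_2 r h
  · exact List.all_eq_true.mp embchk_E7_3 r h

/-- the membership of the datum in the list of the exceptional ones -/
theorem mem_exc_E7 : chevE7 ∈ [chevG2, chevB2, chevD4, chevF4, chevE6, chevE7, chevE8] := by simp

/-- over a finite field the kernel of the homomorphism onto the Chevalley group of type E₇ is
isomorphic to the group of the roots of unity of order dividing 2 -/
theorem ker_equiv_E7 {K : Type*} [Field K] [Finite K] :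
    Nonempty ((powMonoidHom 2 : Kˣ →* Kˣ).ker ≃* (covHom (K := K) mem_exc_E7).ker) :=
  ker_covHom_equiv mem_exc_E7 cart_E7 cycM_E7 cycP_E7 cycW_E7 1 2 cycchk_E7
    (by simp : chevE8 ∈ [chevG2, chevB2, chevD4, chevF4, chevE6, chevE7, chevE8]) embE7 sl_E7 sl_E8
    embcov_E7 embrow_E7 embsimp_E7 cart_E8 (by decide) 120 (by decide) (-1) (-1) (0) sepchk_E7
    (by norm_num)

end Cfsg.Agent.Lib.Helper18.StAbs
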