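import Cfsg.Agent.Lib.Helper18.StEmbE7.Tab

/-!
# The embedding of the roots of type E₇ into those of type E₈: further checks
-/

set_option autoImplicit false

namespace Cfsg.Agent.Lib.Helper18.StAbs

open Cfsg Cfsg.Lie Cfsg.Lie.ChevalleyDatum

set_option maxRecDepth 100000 in
theorem embcov_E7 : embE7.map Prod.fst = List.range chevE7.nroots := by decide +kernel

set_option maxRecDepth 100000 in
theorem embsimp_E7 : simpB chevE7 chevE8 embE7 = true := by decide +kernel

set_option maxRecDepth 100000 in
theorem cycchk_E7 : cycChk chevE7 cycM_E7 cycP_E7 cycW_E7 1 2 = true := by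
  decide +kernel

set_option maxRecDepth 100000 in
theorem sepchk_E7 : ((List.range chevE7.rank).map
    (fun i => cycP_E7.getD i 0 * chevE8.cartan i 120)).sum = -1 := by decide +kernel

end Cfsg.Agent.Lib.Helper18.StAbs
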