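import Cfsg.Agent.Lib.Helper18.StEmb
import Cfsg.Agent.Lib.Helper18.StCentCyc

/-!
# The embedding of the roots of type E₇ into those of type E₈: data
-/

set_option autoImplicit false

namespace Cfsg.Agent.Lib.Helper18.StAbs

open Cfsg Cfsg.Lie Cfsg.Lie.ChevalleyDatum

set_option maxRecDepth 100000 in
set_option maxHeartbeats 4000000 in
/-- for each root of type E₇: its image among the roots of type E₈, and a sign -/
def embE7 : List (ℕ × ℕ × ℤ) :=
  [(0, 13, 1), (1, 20, 1), (2, 25, 1), (3, 29, 1), (4, 32, 1), (5, 34, 1),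
  (6, 35, 1), (7, 39, 1), (8, 42, 1), (9, 44, 1), (10, 45, 1), (11, 48, 1),
  (12, 50, 1), (13, 51, 1), (14, 53, 1), (15, 54, 1), (16, 55, 1), (17, 58, 1),
  (18, 60, 1), (19, 61, 1), (20, 63, 1), (21, 64, 1), (22, 65, 1), (23, 67, 1),
  (24, 68, 1), (25, 69, 1), (26, 70, 1), (27, 72, 1), (28, 73, 1), (29, 74, 1),
  (30, 75, 1), (31, 76, 1), (32, 77, 1), (33, 80, 1), (34, 82, 1), (35, 83, 1),
  (36, 85, 1), (37, 86, 1), (38, 87, 1), (39, 89, 1), (40, 90, 1), (41, 91, 1),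
  (42, 92, 1), (43, 94, 1), (44, 95, 1), (45, 96, 1), (46, 97, 1), (47, 98, 1),
  (48, 100, 1), (49, 101, 1), (50, 102, 1), (51, 103, 1), (52, 104, 1), (53, 106, 1),
  (54, 107, 1), (55, 108, 1), (56, 109, 1), (57, 111, 1), (58, 112, 1), (59, 113, 1),
  (60, 115, 1), (61, 116, 1), (62, 118, 1), (63, 121, 1), (64, 123, 1), (65, 124, 1),
  (66, 126, 1), (67, 127, 1), (68, 128, 1), (69, 130, 1), (70, 131, 1), (71, 132, 1),
  (72, 133, 1), (73, 135, 1), (74, 136, 1), (75, 137, 1), (76, 138, 1), (77, 139, 1),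
  (78, 141, 1), (79, 142, 1), (80, 143, 1), (81, 144, 1), (82, 145, 1), (83, 147, 1),
  (84, 148, 1), (85, 149, 1), (86, 150, 1), (87, 152, 1), (88, 153, 1), (89, 154, 1),
  (90, 156, 1), (91, 157, 1), (92, 159, 1), (93, 162, 1), (94, 163, 1), (95, 164, 1),
  (96, 165, 1), (97, 166, 1), (98, 167, 1), (99, 169, 1), (100, 170, 1), (101, 171, 1),
  (102, 172, 1), (103, 174, 1), (104, 175, 1), (105, 176, 1), (106, 178, 1), (107, 179, 1),
  (108, 181, 1), (109, 184, 1), (110, 185, 1), (111, 186, 1), (112, 188, 1), (113, 189, 1),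
  (114, 191, 1), (115, 194, 1), (116, 195, 1), (117, 197, 1), (118, 200, 1), (119, 204, 1),
  (120, 205, 1), (121, 207, 1), (122, 210, 1), (123, 214, 1), (124, 219, 1), (125, 226, 1)]

/-- solutions of the equations with the Cartan matrix of type E₇ as coefficients -/
def cycM_E7 : List (List ℤ) :=
  [[2, 0, 3, 4, 1, 2, -1],
  [2, 0, 4, 6, 1, 3, -2],
  [3, 0, 6, 8, 2, 4, -2],
  [4, 0, 8, 12, 3, 6, -3],
  [3, 0, 6, 9, 3, 5, -2],
  [2, 0, 4, 6, 2, 4, -1],
  [1, 0, 2, 3, 1, 2, 0]]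

/-- the exponents of the central elements of type E₇ -/
def cycP_E7 : List ℤ := [0, 1, 0, 0, 1, 0, 1]

/-- a solution of the equation giving the order of the centre of type E₇ -/
def cycW_E7 : List ℤ := [4, 7, 8, 12, 9, 6, 3]

end Cfsg.Agent.Lib.Helper18.StAbs
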